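/-
Vectors of weight two in `SU_5(2)`: the products of two transvections which are diagonal, and the
relation exhibiting a transvection as a commutator of products of commuting transvections.
-/
import Mathlib
import Cfsg.Agent.Lib.Fischer.SU5.Defs
import Cfsg.Agent.Lib.Fischer.TwoRad.Idx

set_option autoImplicit false
set_option linter.unusedSectionVars false
set_option linter.unusedSimpArgs false

open scoped Matrix commutatorElement
open Cfsg
open Cfsg.Agent.Lib.Classical.Herm.Basic Cfsg.Agent.Lib.Classical.Herm.Form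
open Cfsg.Agent.Lib.Classical.Herm.GU Cfsg.Agent.Lib.Classical.Herm.SU
open Cfsg.Agent.Lib.Classical.Herm.Subfield Cfsg.Agent.Lib.Classical.Herm.Isotropic
open Cfsg.Agent.Lib.Classical.Herm.Tv Cfsg.Agent.Lib.Classical.Herm.Comm
open Cfsg.Agent.Lib.Classical.Herm.Gen
open Cfsg.Agent.Lib.Fischer.TwoRad.Tau Cfsg.Agent.Lib.Fischer.TwoRad.Idx

namespace Cfsg.Agent.Lib.Fischer.SU5

variable {F : Type*} [Field F] [Fintype F]

local notation "⟪" x ", " y "⟫" => hermForm _ _ 2 x y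

/-- The form against a vector supported on two coordinates. -/
theorem form_supp {w : Fin 5 → F} {i j : Fin 5} (hij : i ≠ j) (hs : ∀ k, k ≠ i → k ≠ j → w k = 0)
    (y : Fin 5 → F) : ⟪y, w⟫ = y i * w i ^ 2 + y j * w j ^ 2 := by
  rw [hermForm_apply]
  apply Finset.sum_eq_add i j hij
  · intro k _ h
    rw [hs k h.1 h.2]
    simp
  · intro h
    exact absurd (Finset.mem_univ _) h
  · intro h
    exact absurd (Finset.mem_univ _) h

section Data

variable (hF : Fintype.card F = 2 ^ 2)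
include hF

/-- Coordinates of an isotropic nonzero vector supported on two coordinates. -/
theorem wt2_coords {w : Fin 5 → F} (hw : ⟪w, w⟫ = 0) (hw0 : w ≠ 0) {i j : Fin 5} (hij : i ≠ j)
    (hs : ∀ k, k ≠ i → k ≠ j → w k = 0) : w i ^ 3 = 1 ∧ w j ^ 3 = 1 := by
  have hh2 := two_eq hF
  have hiso : w i * w i ^ 2 + w j * w j ^ 2 = 0 := by
    rw [← form_supp hij hs w]; exact hw
  have hi0 : w i ≠ 0 := by
    intro h
    have hj : w j = 0 := by
      rw [h] at hiso
      have : w j ^ 3 = 0 := by linear_combination hiso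
      exact pow_eq_zero_iff (by norm_num) |>.mp this
    apply hw0
    funext k
    by_cases hki : k = i
    · rw [hki, h]; rfl
    by_cases hkj : k = j
    · rw [hkj, hj]; rfl
    · exact hs k hki hkj
  have hj0 : w j ≠ 0 := by
    intro h
    have hi : w i = 0 := by
      rw [h] at hiso
      have : w i ^ 3 = 0 := by linear_combination hiso
      exact pow_eq_zero_iff (by norm_num) |>.mp this
    exact hi0 hi
  exact ⟨pow_three hF hi0, pow_three hF hj0⟩

variable {ω : F} (hω : ω ^ 2 + ω + 1 = 0)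
include hω

theorem wt2_data {w : Fin 5 → F} (hw : ⟪w, w⟫ = 0) (hw0 : w ≠ 0) {i j : Fin 5} (hij : i ≠ j)
    (hs : ∀ k, k ≠ i → k ≠ j → w k = 0) :
    ∃ (w₂ : Fin 5 → F) (hw₂ : ⟪w₂, w₂⟫ = 0), w₂ ≠ 0 ∧ (∀ k, k ≠ i → k ≠ j → w₂ k = 0) ∧
      ¬ Commute (τ hF hw) (τ hF hw₂) ∧ τ hF hw * τ hF hw₂ = gg hF hω i * (gg hF hω j)⁻¹ := by
  classical
  have hh2 := two_eq hF
  obtain ⟨ha3, hb3⟩ := wt2_coords hF hw hw0 hij hs
  have hω3 : ω ^ 3 = 1 := by linear_combination (ω - 1) * hω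
  set w₂ : Fin 5 → F := fun k => if k = j then ω * w j else w k with hw₂def
  have hw₂i : w₂ i = w i := by simp [hw₂def, hij]
  have hw₂j : w₂ j = ω * w j := by simp [hw₂def]
  have hw₂s : ∀ k, k ≠ i → k ≠ j → w₂ k = 0 := by
    intro k hki hkj
    simp [hw₂def, hkj, hs k hki hkj]
  have hw₂iso : ⟪w₂, w₂⟫ = 0 := by
    rw [form_supp hij hw₂s, hw₂i, hw₂j]
    linear_combination ha3 + ω ^ 3 * hb3 + hω3 + hh2
  have hw₂0 : w₂ ≠ 0 := by
    intro h
    have : w₂ i = 0 := by rw [h]; rfl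
    rw [hw₂i] at this
    rw [this] at ha3
    simp at ha3
  have hωne : ω ^ 2 ≠ 1 := by
    intro h
    have h1 : ω = 0 := by linear_combination hω - h - hh2
    rw [h1] at hω
    simp at hω
  -- the action of the product
  have hcomp : ∀ (y : Fin 5 → F) (k : Fin 5), (act (τ hF hw * τ hF hw₂iso) y) k =
      if k = i then ω * y k else if k = j then ω ^ 2 * y k else y k := by
    intro y k
    rw [act_mul, act_τ hF hw₂iso, act_τ hF hw, form_supp hij hs, form_supp hij hw₂s]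
    simp only [Pi.add_apply, Pi.smul_apply, smul_eq_mul, hw₂i, hw₂j]
    by_cases hki : k = i
    · subst hki
      rw [if_pos rfl, hw₂i]
      linear_combination (y k + (y k * w k ^ 2 + y j * (ω * w j) ^ 2) * w k
          + y j * w j ^ 2 * w k) * hh2
        + (y k + (y k * w k ^ 2 + y j * (ω * w j) ^ 2) * w k + y k * ω) * ha3
        + (y k * w k ^ 2 + y j * (ω * w j) ^ 2) * ω * w k * hb3
        + y j * w j ^ 2 * w k * hω3
    · rw [if_neg hki]
      by_cases hkj : k = j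
      · subst hkj
        rw [if_pos rfl, hw₂j]
        linear_combination (y k + (y i * w i ^ 2 + y k * (ω * w k) ^ 2) * ω * w k
            + y i * w i ^ 2 * w k) * hh2
          + (y i * w i ^ 2 + y k * (ω * w k) ^ 2) * w k * ha3
          + (y k * ω ^ 2 + y k + (y i * w i ^ 2 + y k * (ω * w k) ^ 2) * ω * w k) * hb3
      · rw [if_neg hkj, hw₂s k hki hkj, hs k hki hkj]
        ring
  refine ⟨w₂, hw₂iso, hw₂0, hw₂s, ?_, ?_⟩
  · intro hc
    have hone : (τ hF hw * τ hF hw₂iso) * (τ hF hw * τ hF hw₂iso) = 1 := by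
      calc (τ hF hw * τ hF hw₂iso) * (τ hF hw * τ hF hw₂iso)
          = (τ hF hw * τ hF hw) * (τ hF hw₂iso * τ hF hw₂iso) := by
            rw [mul_assoc, mul_assoc, ← mul_assoc (τ hF hw₂iso), ← hc.eq, mul_assoc]
        _ = 1 := by rw [τ_sq, τ_sq, one_mul]
    have e1 := congrFun (act_mul (τ hF hw * τ hF hw₂iso) (τ hF hw * τ hF hw₂iso)
      (Pi.single i (1 : F))) i
    rw [hone, act_one, hcomp, if_pos rfl, hcomp, if_pos rfl] at e1
    simp only [Pi.single_eq_same] at e1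
    apply hωne
    linear_combination -e1
  · rw [eq_mul_inv_iff_mul_eq]
    apply ext_act
    intro y
    funext k
    rw [act_mul, hcomp, act_gg, act_gg]
    by_cases hki : k = i
    · subst hki
      simp only [if_pos, ggd, if_neg hij]
      ring
    · rw [if_neg hki]
      by_cases hkj : k = j
      · subst hkj
        simp only [if_pos, ggd, if_neg hki]
        linear_combination ω * y k * hω3
      · simp only [if_neg hkj, ggd, if_neg hki]

theorem wt2_comm {w : Fin 5 → F} (hw : ⟪w, w⟫ = 0) {i j : Fin 5} (hij : i ≠ j)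
    (hs : ∀ k, k ≠ i → k ≠ j → w k = 0) :
    Commute (gg hF hω i * gg hF hω j) (τ hF hw) := by
  have hω3 : ω ^ 3 = 1 := by linear_combination (ω - 1) * hω
  have hfix : act (gg hF hω i * gg hF hω j) w = w := by
    funext k
    rw [act_mul, act_gg, act_gg]
    by_cases hki : k = i
    · subst hki
      simp only [ggd, if_pos, if_neg hij]
      linear_combination w k * hω3
    · by_cases hkj : k = j
      · subst hkj
        simp only [ggd, if_pos, if_neg hki]
        linear_combination w k * hω3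
      · simp [hs k hki hkj]
  have hiso : ⟪act (gg hF hω i * gg hF hω j) w, act (gg hF hω i * gg hF hω j) w⟫ = 0 := by
    rw [hfix]; exact hw
  have h1 := τ_conj hF (gg hF hω i * gg hF hω j) hw hiso
  rw [τ_congr hF hiso hw hfix, mul_inv_eq_iff_eq_mul] at h1
  exact h1

end Data

theorem wt2_zero (hF : Fintype.card F = 2 ^ 2) {w : Fin 5 → F} (hw : ⟪w, w⟫ = 0) (hw0 : w ≠ 0)
    {i j : Fin 5} (hij : i ≠ j) (hs : ∀ k, k ≠ i → k ≠ j → w k = 0) {y : Fin 5 → F} {n : Fin 5}
    (hy : y n = 0) : (tr w y) (Equiv.swap i j n) = 0 := by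
  have hh2 := two_eq hF
  obtain ⟨ha3, hb3⟩ := wt2_coords hF hw hw0 hij hs
  unfold tr
  rw [form_supp hij hs]
  simp only [Pi.add_apply, Pi.smul_apply, smul_eq_mul]
  by_cases hni : n = i
  · subst hni
    rw [Equiv.swap_apply_left, hy]
    linear_combination y j * hb3 + y j * hh2
  · by_cases hnj : n = j
    · subst hnj
      rw [Equiv.swap_apply_right, hy]
      linear_combination y i * ha3 + y i * hh2
    · rw [Equiv.swap_apply_of_ne_of_ne hni hnj, hy, hs n hni hnj]
      ring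

theorem e0_rel (hF : Fintype.card F = 2 ^ 2) {κ : F} (hκ : κ + κ ^ 2 = 1) :
    ∃ (c a b a' b' : Fin 5 → F) (hc : ⟪c, c⟫ = 0) (ha : ⟪a, a⟫ = 0) (hb : ⟪b, b⟫ = 0)
      (ha' : ⟪a', a'⟫ = 0) (hb' : ⟪b', b'⟫ = 0),
      c ≠ 0 ∧ a ≠ 0 ∧ b ≠ 0 ∧ a' ≠ 0 ∧ b' ≠ 0 ∧
      τ hF ha ≠ τ hF hc ∧ τ hF hb ≠ τ hF hc ∧ τ hF ha' ≠ τ hF hc ∧ τ hF hb' ≠ τ hF hc ∧
      ⟪a, c⟫ = 0 ∧ ⟪b, c⟫ = 0 ∧ ⟪a', c⟫ = 0 ∧ ⟪b', c⟫ = 0 ∧
      τ hF hc = ⁅τ hF ha * τ hF hb, τ hF ha' * τ hF hb'⁆ := by
  have hh2 := two_eq hF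
  have hκ0 : κ ≠ 0 := by
    rintro rfl
    simp at hκ
  have hκ1 : κ + 1 ≠ 0 := by
    intro h
    have h1 : κ = 1 := by linear_combination h - hh2
    rw [h1] at hκ
    have : (1 : F) = 0 := by linear_combination -hκ + hh2
    exact one_ne_zero this
  have h3 := pow_three hF hκ0
  have h3' := pow_three hF hκ1
  let c : Fin 5 → F := ![1, 1, 0, 0, 0]
  let a : Fin 5 → F := ![0, 0, 1, 1, 0]
  let a' : Fin 5 → F := ![0, 0, κ, κ + 1, 0]
  let v : Fin 5 → F := ![0, 0, 1, 0, 0]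
  have hc : ⟪c, c⟫ = 0 := by
    rw [form5 hF]
    simp [c]
    linear_combination hh2
  have ha : ⟪a, a⟫ = 0 := by
    rw [form5 hF]
    simp [a]
    linear_combination hh2
  have ha' : ⟪a', a'⟫ = 0 := by
    rw [form5 hF]
    simp [a']
    linear_combination h3 + h3' + hh2
  have hac : ⟪a, c⟫ = 0 := by
    rw [form5 hF]
    simp [a, c]
  have ha'c : ⟪a', c⟫ = 0 := by
    rw [form5 hF]
    simp [a', c]
  have haa' : ⟪a, a'⟫ = 1 := by
    rw [form5 hF]
    simp [a, a']
    linear_combination (κ ^ 2 + κ) * hh2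
  have hvc : ⟪v, c⟫ = 0 := by
    rw [form5 hF]
    simp [v, c]
  have hb := iso_add hF (1 : F) ha hc hac
  have hb' := iso_add hF κ ha' hc ha'c
  have hcc : ∀ x : Fin 5 → F, ⟪x, c⟫ = 0 → ∀ l : F, ⟪x + l • c, c⟫ = 0 := by
    intro x hx l
    rw [hermForm_add_left, hermForm_smul_left, hx, hc, mul_zero, add_zero]
  have hvb : ∀ (x : Fin 5 → F) (l : F), ⟪v, x + l • c⟫ = ⟪v, x⟫ := by
    intro x l
    rw [add_right' hF, hermForm_smul_right, hvc, mul_zero, add_zero]
  have hva : ⟪v, a⟫ = 1 := by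
    rw [form5 hF]
    simp [v, a]
  have hva' : ⟪v, a'⟫ = κ ^ 2 := by
    rw [form5 hF]
    simp [v, a']
  have hva'ne : ⟪v, a'⟫ ≠ 0 := by
    rw [hva']
    exact pow_ne_zero 2 hκ0
  refine ⟨c, a, a + (1 : F) • c, a', a' + κ • c, hc, ha, hb, ha', hb', ?_, ?_, ?_, ?_, ?_,
    tau_ne hF hc ha hvc ?_, tau_ne hF hc hb hvc ?_, tau_ne hF hc ha' hvc hva'ne,
    tau_ne hF hc hb' hvc ?_, hac, hcc a hac 1, ha'c, hcc a' ha'c κ,
    comm_gen hF hκ hc ha ha' hac ha'c haa' hb hb'⟩
  · intro h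
    have := congrFun h 0
    simp [c] at this
  · intro h
    have := congrFun h 2
    simp [a] at this
  · intro h
    have := congrFun h 2
    simp [a, c] at this
  · intro h
    have := congrFun h 2
    simp [a'] at this
    exact hκ0 this
  · intro h
    have := congrFun h 2
    simp [a', c] at this
    exact hκ0 this
  · rw [hva]; exact one_ne_zero
  · rw [hvb, hva]; exact one_ne_zero
  · rw [hvb]; exact hva'ne

end Cfsg.Agent.Lib.Fischer.SU5
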